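import Cfsg.Agent.Lib.OddCorr.Inertial

/-!
# The odd correspondence across an abelian section
-/

set_option autoImplicit false
set_option linter.unusedSectionVars false

namespace Cfsg.Agent.Lib.OddCorr

open Cfsg Cfsg.Agent.Lib.Char Cfsg.Agent.Lib.CharClifford Cfsg.Agent.Lib.Glauberman

universe u

variable {G : Type u} [Group G] [Fintype G] {S : Type u} [Group S] [Finite S] {a : S →* MulAut G}
  {K L H : Subgroup G} (cfg : Cfg a K L H) [K.Normal] [L.Normal]

include cfg

/-- An element of `K` moved only inside a subgroup above `L` lies in that subgroup. -/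
theorem Cfg.mem_of_moved {T : Subgroup G} (hLT : L ≤ T) {k : G} (hk : k ∈ K)
    (h : ∀ x : S, a x k * k⁻¹ ∈ T) : k ∈ T := by
  letI : CommGroup (K ⧸ L.subgroupOf K) :=
    { (inferInstance : Group (K ⧸ L.subgroupOf K)) with mul_comm := cfg.quot_comm }
  let β := quotAut (L.subgroupOf K) (restrAut a K cfg.stabK) (fun x y hy => cfg.stabL x _ hy)
  let q : K ⧸ L.subgroupOf K := ((⟨k, hk⟩ : K) : K ⧸ L.subgroupOf K)
  let B : Subgroup (K ⧸ L.subgroupOf K) := (T.subgroupOf K).map (QuotientGroup.mk' (L.subgroupOf K))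
  have := Fintype.ofFinite S
  have h1 : ∏ x, β x q = 1 := by
    have hfix : ∀ t, β t (∏ x, β x q) = ∏ x, β x q := fun t => by
      rw [map_prod]
      refine Fintype.prod_equiv (Equiv.mulLeft t) _ _ fun x => ?_
      rw [Equiv.coe_mulLeft, map_mul, MulAut.mul_apply]
    obtain ⟨y, hy⟩ := QuotientGroup.mk_surjective (∏ x, β x q)
    rw [← hy] at hfix ⊢
    refine (QuotientGroup.eq_one_iff y).mpr (cfg.fpf y y.2 fun x => ?_)
    have h := hfix x
    change ((restrAut a K cfg.stabK x y : K) : K ⧸ L.subgroupOf K) = _ at h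
    rw [eq_comm, QuotientGroup.eq] at h
    exact h
  have hB : ∀ x, β x q * q⁻¹ ∈ B := fun x =>
    ⟨(⟨a x k, cfg.stabK x k hk⟩ : K) * (⟨k, hk⟩ : K)⁻¹, h x, rfl⟩
  have h2 := pow_card_mem_of_prod B (fun x => β x q) hB h1
  have h3 : q ^ Nat.card (K ⧸ L.subgroupOf K) ∈ B := by rw [pow_card_eq_one']; exact B.one_mem
  have h4 : q ∈ B := mem_of_pow_mem_of_coprime B h3 h2 (by
    rw [← Nat.card_eq_fintype_card, ← Subgroup.index_eq_card]; exact cfg.cop)
  obtain ⟨y, hy, hyq⟩ := h4
  rw [QuotientGroup.mk'_apply, QuotientGroup.eq] at hyq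
  have := T.mul_mem hy (hLT hyq)
  simpa using this

theorem Cfg.restrict_inertia (φ : IrrCharacter L)
    (hφs : Inv (restrAut a L cfg.stabL) (φ : L → ℂ)) :
    ∃ hT : ∀ x : S, ∀ t ∈ inertia L (φ : L → ℂ), a x t ∈ inertia L (φ : L → ℂ),
      Cfg (restrAut a (inertia L (φ : L → ℂ)) hT) (K.subgroupOf (inertia L (φ : L → ℂ)))
        (L.subgroupOf (inertia L (φ : L → ℂ))) (H.subgroupOf (inertia L (φ : L → ℂ))) := by
  set T := inertia L (φ : L → ℂ) with hTdef
  have hLT : L ≤ T := le_inertia L (isClassFunction_of_isIrr φ.2)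
  have hT : ∀ x : S, ∀ t ∈ T, a x t ∈ T := by
    intro x t ht
    rw [hTdef, mem_inertia] at ht ⊢
    funext n
    have h1 := congrFun ht ⟨a x⁻¹ n, cfg.stabL x⁻¹ n n.2⟩
    rw [conjChar_apply] at h1 ⊢
    rw [show (φ : L → ℂ) n = (φ : L → ℂ) ⟨a x⁻¹ n, cfg.stabL x⁻¹ n n.2⟩ from (hφs x⁻¹ n).symm, ← h1]
    refine (hφs x⁻¹ _).symm.trans (congrArg (φ : L → ℂ) (Subtype.ext ?_))
    rw [restrAut_apply]
    simp only [map_mul, map_inv]
    simp [← MulAut.mul_apply]
  refine ⟨hT, ⟨fun g hg => cfg.hLK hg, fun g hg => cfg.hLH hg, fun g h1 h2 => cfg.inter g h1 h2,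
    fun g => ?_, fun x hx y hy => cfg.comm x hx y hy, cfg.odd.of_dvd_nat (Subgroup.card_subgroup_dvd_card _),
    ?_, fun x k hk => cfg.stabK x k hk, fun x l hl => cfg.stabL x l hl, fun x h hh => cfg.triv x h hh,
    fun k hk hf => cfg.fpf k hk hf, ?_, cfg.copG.coprime_dvd_left (Subgroup.card_subgroup_dvd_card _)⟩⟩
  · obtain ⟨h, hh, k, hk, hg⟩ := cfg.prod g
    have hkT : k ∈ T := by
      refine cfg.mem_of_moved hLT hk fun x => ?_
      have hl := cfg.triv x h hh
      have e : a x k = (h⁻¹ * a x h)⁻¹ * (h⁻¹ * a x (g : G)) := by rw [hg, map_mul]; group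
      have e2 : h⁻¹ * a x (g : G) = k * ((g : G)⁻¹ * a x (g : G)) := by rw [hg]; group
      rw [e, e2]
      have h5 : k * ((g : G)⁻¹ * a x (g : G)) * k⁻¹ ∈ T := by
        have hgT : (g : G)⁻¹ * a x (g : G) ∈ T := T.mul_mem (T.inv_mem g.2) (hT x _ g.2)
        have hgK : (g : G)⁻¹ * a x (g : G) ∈ K := by
          rw [show (g : G)⁻¹ * a x (g : G) = k⁻¹ * (h⁻¹ * a x h) * a x k by rw [hg, map_mul]; group]
          exact K.mul_mem (K.mul_mem (K.inv_mem hk) (cfg.hLK hl)) (cfg.stabK x k hk)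
        have h6 := T.mul_mem (hLT (cfg.comm k hk _ hgK)) hgT
        simpa [mul_assoc] using h6
      have h7 := T.mul_mem (T.inv_mem (hLT hl)) h5
      simpa [mul_assoc] using h7
    have hhT : h ∈ T := by
      have := T.mul_mem g.2 (T.inv_mem hkT)
      rw [hg] at this
      simpa using this
    exact ⟨⟨h, hhT⟩, hh, ⟨k, hkT⟩, hk, Subtype.ext hg⟩
  · haveI := cfg.solv
    exact inferInstance
  · exact cfg.copG.coprime_dvd_left ((Subgroup.index_dvd_card _).trans
      ((Subgroup.card_subgroup_dvd_card _).trans (Subgroup.card_subgroup_dvd_card _)))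

/-- For an invariant `φ`, the characters over it correspond with odd multiplicity. -/
theorem Cfg.over_corr [Fintype L] [Fintype H] (φ : IrrCharacter L)
    (hφs : Inv (restrAut a L cfg.stabL) (φ : L → ℂ)) :
    (∀ χ : IrrCharacter G, Inv a (χ : G → ℂ) →
      classInner (fun l : L => (χ : G → ℂ) l) (φ : L → ℂ) ≠ 0 →
      ∃ ψ : IrrCharacter H, classInner (resLe cfg.hLH (ψ : H → ℂ)) (φ : L → ℂ) ≠ 0 ∧
        Inv (restrAut a H cfg.stabH) (ψ : H → ℂ) ∧
        ∀ ψ' : IrrCharacter H, classInner (resLe cfg.hLH (ψ' : H → ℂ)) (φ : L → ℂ) ≠ 0 →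
          (OddMult (fun h : H => (χ : G → ℂ) h) (ψ' : H → ℂ) ↔ ψ' = ψ)) ∧
    (∀ ψ : IrrCharacter H, classInner (resLe cfg.hLH (ψ : H → ℂ)) (φ : L → ℂ) ≠ 0 →
      Inv (restrAut a H cfg.stabH) (ψ : H → ℂ) →
      ∃ χ : IrrCharacter G, Inv a (χ : G → ℂ) ∧
        OddMult (fun h : H => (χ : G → ℂ) h) (ψ : H → ℂ)) ∧
    (∀ (χ χ' : IrrCharacter G) (ψ : IrrCharacter H), Inv a (χ : G → ℂ) → Inv a (χ' : G → ℂ) →
      classInner (resLe cfg.hLH (ψ : H → ℂ)) (φ : L → ℂ) ≠ 0 →
      OddMult (fun h : H => (χ : G → ℂ) h) (ψ : H → ℂ) →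
      OddMult (fun h : H => (χ' : G → ℂ) h) (ψ : H → ℂ) → χ = χ') := by
  classical
  obtain ⟨hT, cfgT⟩ := cfg.restrict_inertia φ hφs
  set T := inertia L (φ : L → ℂ) with hTdef
  have hLT : L ≤ T := le_inertia L (isClassFunction_of_isIrr φ.2)
  haveI : (K.subgroupOf T).Normal := (inferInstance : K.Normal).subgroupOf T
  haveI : (L.subgroupOf T).Normal := (inferInstance : L.Normal).subgroupOf T
  haveI : (L.subgroupOf H).Normal := (inferInstance : L.Normal).subgroupOf H
  have := Fintype.ofFinite T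
  have := Fintype.ofFinite (L.subgroupOf T)
  have := Fintype.ofFinite (H.subgroupOf T)
  have := Fintype.ofFinite (L.subgroupOf H)
  have := Fintype.ofFinite (T.subgroupOf H)
  let aT := restrAut a T hT
  -- the lower character inside the inertia group
  let φT := irrSub hLT φ
  have hφTi : ∀ g : T, conjChar (L.subgroupOf T) g (φT : L.subgroupOf T → ℂ) = φT := fun g =>
    funext fun n => (congrArg (φ : L → ℂ) (Subtype.ext rfl)).trans
      (congrFun ((mem_inertia L).mp g.2) (Subgroup.subgroupOfEquivOfLe hLT n))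
  have hφTs : Inv (restrAut aT (L.subgroupOf T) cfgT.stabL) (φT : L.subgroupOf T → ℂ) := fun x n =>
    (congrArg (φ : L → ℂ) (Subtype.ext rfl)).trans (hφs x (Subgroup.subgroupOfEquivOfLe hLT n))
  obtain ⟨hfwd, hsur, hinj⟩ := cfgT.inertial φT hφTi hφTs
  -- the lower character inside the complement
  let φH := irrSub cfg.hLH φ
  let HT := T.subgroupOf H
  have hNHT : L.subgroupOf H ≤ HT := fun x hx => hLT hx
  have hHTinertia : inertia (L.subgroupOf H) (φH : L.subgroupOf H → ℂ) = HT := by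
    ext g
    rw [mem_inertia, Subgroup.mem_subgroupOf, hTdef, mem_inertia]
    constructor
    · intro hg
      funext l
      have := congrFun hg ((Subgroup.subgroupOfEquivOfLe cfg.hLH).symm l)
      exact (congrArg (φ : L → ℂ) (Subtype.ext rfl)).trans (this.trans (congrArg (φ : L → ℂ) (Subtype.ext rfl)))
    · intro hg
      funext n
      exact (congrArg (φ : L → ℂ) (Subtype.ext rfl)).trans
        (congrFun hg (Subgroup.subgroupOfEquivOfLe cfg.hLH n))
  let e : HT ≃* H.subgroupOf T :=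
    { toFun := fun x => ⟨⟨(x : H), x.2⟩, (x : H).2⟩
      invFun := fun y => ⟨⟨(y : T), y.2⟩, (y : T).2⟩
      left_inv := fun x => rfl
      right_inv := fun y => rfl
      map_mul' := fun x y => rfl }
  -- the complement side
  have hHside : ∀ ψ : IrrCharacter H, classInner (resLe cfg.hLH (ψ : H → ℂ)) (φ : L → ℂ) ≠ 0 →
      ∃ η : IrrCharacter (H.subgroupOf T),
        classInner (resLe cfgT.hLH (η : H.subgroupOf T → ℂ)) (φT : L.subgroupOf T → ℂ) ≠ 0 ∧
        indFun HT (fun x => (η : H.subgroupOf T → ℂ) (e x)) = (ψ : H → ℂ) ∧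
        (Inv (restrAut a H cfg.stabH) (ψ : H → ℂ) →
          Inv (restrAut aT (H.subgroupOf T) cfgT.stabH) (η : H.subgroupOf T → ℂ)) := by
    intro ψ hψ
    have hψ' : classInner (fun n : L.subgroupOf H => (ψ : H → ℂ) n) (φH : L.subgroupOf H → ℂ) ≠ 0 := by
      rw [← classInner_irrSub cfg.hLH ψ φ]; exact hψ
    obtain ⟨η', hη', hind, hres, hcon⟩ := exists_correspondent (L.subgroupOf H) φH.2 HT hHTinertia hNHT ψ.2 hψ'
    let η : IrrCharacter (H.subgroupOf T) := ⟨fun y => η' (e.symm y), isIrrCharacter_comp_equiv e.symm hη'⟩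
    have hηe : (fun x => (η : H.subgroupOf T → ℂ) (e x)) = η' := funext fun x => rfl
    refine ⟨η, ?_, by rw [hηe]; exact hind, fun hinv => ?_⟩
    · have h1 : classInner (resLe hNHT η') (φH : L.subgroupOf H → ℂ) ≠ 0 := by rw [hres]; exact hψ'
      let e0 : L.subgroupOf H ≃* L.subgroupOf T :=
        { toFun := fun x => ⟨⟨(x : H), hLT x.2⟩, x.2⟩
          invFun := fun y => ⟨⟨(y : T), cfg.hLH y.2⟩, y.2⟩
          left_inv := fun x => rfl
          right_inv := fun y => rfl
          map_mul' := fun x y => rfl }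
      rwa [← classInner_comp_equiv e0]
    · intro x y
      obtain ⟨-, -, huniq⟩ := correspondence (L.subgroupOf H) φH.2 HT hHTinertia hNHT ψ.2 hη'
        (by rw [hres]; exact hψ') hcon
      let b : MulAut HT :=
        { toFun := fun z => ⟨restrAut a H cfg.stabH x z, hT x _ z.2⟩
          invFun := fun z => ⟨restrAut a H cfg.stabH x⁻¹ z, hT x⁻¹ _ z.2⟩
          left_inv := fun z => Subtype.ext (Subtype.ext (by
            show a x⁻¹ (a x ((z : H) : G)) = ((z : H) : G)
            rw [← MulAut.mul_apply, ← map_mul, inv_mul_cancel, map_one, MulAut.one_apply]))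
          right_inv := fun z => Subtype.ext (Subtype.ext (by
            show a x (a x⁻¹ ((z : H) : G)) = ((z : H) : G)
            rw [← MulAut.mul_apply, ← map_mul, mul_inv_cancel, map_one, MulAut.one_apply]))
          map_mul' := fun z w => Subtype.ext (map_mul _ _ _) }
      let b0 : MulAut (L.subgroupOf H) :=
        { toFun := fun z => ⟨restrAut a H cfg.stabH x z, cfg.stabL x _ z.2⟩
          invFun := fun z => ⟨restrAut a H cfg.stabH x⁻¹ z, cfg.stabL x⁻¹ _ z.2⟩
          left_inv := fun z => Subtype.ext (Subtype.ext (by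
            show a x⁻¹ (a x ((z : H) : G)) = ((z : H) : G)
            rw [← MulAut.mul_apply, ← map_mul, inv_mul_cancel, map_one, MulAut.one_apply]))
          right_inv := fun z => Subtype.ext (Subtype.ext (by
            show a x (a x⁻¹ ((z : H) : G)) = ((z : H) : G)
            rw [← MulAut.mul_apply, ← map_mul, mul_inv_cancel, map_one, MulAut.one_apply]))
          map_mul' := fun z w => Subtype.ext (map_mul _ _ _) }
      have h2 := huniq (η' ∘ b) (isIrrCharacter_comp_equiv b hη') ?_ ?_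
      · exact congrFun h2 (e.symm y)
      · have h3 : classInner (fun n => resLe hNHT η' (b0 n)) (fun n => (φH : L.subgroupOf H → ℂ) (b0 n)) ≠ 0 := by
          rw [classInner_equiv b0, hres]; exact hψ'
        rw [show (fun n => (φH : L.subgroupOf H → ℂ) (b0 n)) = φH from funext fun n =>
          (congrArg (φ : L → ℂ) (Subtype.ext rfl)).trans (hφs x (Subgroup.subgroupOfEquivOfLe cfg.hLH n))] at h3
        exact h3
      · have h3 : classInner (fun t : HT => (ψ : H → ℂ) (b t)) (fun t => η' (b t)) ≠ 0 := by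
          rw [classInner_equiv b (fun t : HT => (ψ : H → ℂ) t) η']; exact hcon
        rw [show (fun t : HT => (ψ : H → ℂ) (b t)) = fun t : HT => (ψ : H → ℂ) t from
          funext fun t => hinv x t] at h3
        exact h3
  -- the ambient side
  have hGside : ∀ χ : IrrCharacter G, Inv a (χ : G → ℂ) →
      classInner (fun l : L => (χ : G → ℂ) l) (φ : L → ℂ) ≠ 0 →
      ∃ ξ : IrrCharacter T, Inv aT (ξ : T → ℂ) ∧ indFun T (ξ : T → ℂ) = (χ : G → ℂ) ∧
        classInner (fun n : L.subgroupOf T => (ξ : T → ℂ) n) (φT : L.subgroupOf T → ℂ) ≠ 0 ∧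
        ∀ ψ : IrrCharacter H, ∀ η : IrrCharacter (H.subgroupOf T),
          classInner (resLe cfgT.hLH (η : H.subgroupOf T → ℂ)) (φT : L.subgroupOf T → ℂ) ≠ 0 →
          indFun HT (fun x => (η : H.subgroupOf T → ℂ) (e x)) = (ψ : H → ℂ) →
          classInner (fun h : H => (χ : G → ℂ) h) (ψ : H → ℂ) =
            classInner (fun y : H.subgroupOf T => (ξ : T → ℂ) y) (η : H.subgroupOf T → ℂ) := by
    intro χ hχ hχφ
    obtain ⟨ξ, hξ, hind, hres, hcon⟩ := exists_correspondent L φ.2 T rfl hLT χ.2 hχφ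
    have hover : classInner (resLe hLT ξ) (φ : L → ℂ) ≠ 0 := by rw [hres]; exact hχφ
    obtain ⟨-, -, huniq⟩ := correspondence L φ.2 T rfl hLT χ.2 hξ hover hcon
    have hξT : classInner (fun n : L.subgroupOf T => ξ n) (φT : L.subgroupOf T → ℂ) ≠ 0 := by
      rw [← classInner_irrSub hLT ⟨ξ, hξ⟩ φ]; exact hover
    refine ⟨⟨ξ, hξ⟩, fun x t => ?_, hind, hξT, fun ψ η hη hψη => ?_⟩
    · have h2 := huniq (ξ ∘ aT x) (isIrrCharacter_comp_equiv (aT x) hξ) ?_ ?_
      · exact congrFun h2 t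
      · have h3 : classInner (fun n => resLe hLT ξ (restrAut a L cfg.stabL x n))
            (fun n => (φ : L → ℂ) (restrAut a L cfg.stabL x n)) ≠ 0 := by
          rw [classInner_equiv (restrAut a L cfg.stabL x)]; exact hover
        rw [show (fun n => (φ : L → ℂ) (restrAut a L cfg.stabL x n)) = (φ : L → ℂ) from
          funext fun n => hφs x n] at h3
        exact h3
      · have h3 : classInner (fun t : T => (χ : G → ℂ) (aT x t : T)) (fun t => ξ (aT x t)) ≠ 0 := by
          rw [classInner_equiv (aT x) (fun t : T => (χ : G → ℂ) t) ξ]; exact hcon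
        rw [show (fun t : T => (χ : G → ℂ) (aT x t : T)) = fun t : T => (χ : G → ℂ) t from
          funext fun t => hχ x t] at h3
        exact h3
    · have hone : classInner (fun t : T => (χ : G → ℂ) t) ξ = 1 := by
        rw [← classInner_indFun_right T ξ (isClassFunction_of_isIrr χ.2), hind, classInner_irr_self χ.2]
      rw [← hψη, classInner_indFun_right HT _ (isClassFunction_of_isCharacter
        (isCharacter_restrict (isCharacter_of_isIrr χ.2) H))]
      rw [show classInner (fun x : HT => (χ : G → ℂ) ((x : H) : G)) (fun x => (η : H.subgroupOf T → ℂ) (e x)) =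
        classInner (fun y : H.subgroupOf T => (χ : G → ℂ) ((y : T) : G)) (η : H.subgroupOf T → ℂ) from
        classInner_equiv e (fun y : H.subgroupOf T => (χ : G → ℂ) ((y : T) : G)) _]
      rw [classInner_comp_eq_sum (M := T) (φ := fun t : T => (χ : G → ℂ) t)
        (isClassFunction_of_isCharacter (isCharacter_restrict (isCharacter_of_isIrr χ.2) T))
        (fun y : H.subgroupOf T => (y : T)) _, Finset.sum_eq_single ⟨ξ, hξ⟩]
      · rw [hone, one_mul]
      · intro ξ' _ hne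
        by_contra h0
        obtain ⟨h1, h2⟩ := mul_ne_zero_iff.mp h0
        refine hne (Subtype.ext (huniq ξ' ξ'.2 ?_ h1))
        rw [show classInner (resLe hLT (ξ' : T → ℂ)) (φ : L → ℂ) = _ from classInner_irrSub hLT ξ' φ]
        exact over_trans (H.subgroupOf T).subtype (Subgroup.inclusion cfgT.hLH)
          (isCharacter_of_isIrr ξ'.2) η.2 (isCharacter_of_isIrr φT.2) h2 hη
      · exact fun h => absurd (Finset.mem_univ _) h
  have hoddEq : ∀ {X Y : Type u} [Group X] [Fintype X] [Group Y] [Fintype Y] {f g : X → ℂ} {f' g' : Y → ℂ},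
      classInner f g = classInner f' g' → (OddMult f g ↔ OddMult f' g') := by
    intro X Y _ _ _ _ f g f' g' h
    unfold OddMult
    rw [h]
  refine ⟨fun χ hχ hχφ => ?_, fun ψ hψφ hψ => ?_, fun χ χ' ψ hχ hχ' hψφ h h' => ?_⟩
  · obtain ⟨ξ, hξs, -, hξφ, hmult⟩ := hGside χ hχ hχφ
    obtain ⟨η, hηφ, hηs, hη⟩ := hfwd ξ hξs hξφ
    let η' : HT → ℂ := fun x => (η : H.subgroupOf T → ℂ) (e x)
    have hη' : IsIrrCharacter HT η' := isIrrCharacter_comp_equiv e η.2
    have hη'φ : classInner (resLe hNHT η') (φH : L.subgroupOf H → ℂ) ≠ 0 := by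
      let e0 : L.subgroupOf H ≃* L.subgroupOf T :=
        { toFun := fun x => ⟨⟨(x : H), hLT x.2⟩, x.2⟩
          invFun := fun y => ⟨⟨(y : T), cfg.hLH y.2⟩, y.2⟩
          left_inv := fun x => rfl
          right_inv := fun y => rfl
          map_mul' := fun x y => rfl }
      rwa [← classInner_comp_equiv e0] at hηφ
    obtain ⟨hψirr, hψinj⟩ := indFun_correspondent (L.subgroupOf H) φH.2 HT hHTinertia hNHT hη' hη'φ
    let ψ : IrrCharacter H := ⟨_, hψirr⟩
    have hcon : classInner (fun t : HT => (ψ : H → ℂ) t) η' ≠ 0 := by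
      rw [← classInner_indFun_right HT η' (isClassFunction_of_isIrr ψ.2)]
      show classInner (ψ : H → ℂ) (ψ : H → ℂ) ≠ 0
      rw [classInner_irr_self ψ.2]; exact one_ne_zero
    have hψφ : classInner (resLe cfg.hLH (ψ : H → ℂ)) (φ : L → ℂ) ≠ 0 := by
      rw [show classInner (resLe cfg.hLH (ψ : H → ℂ)) (φ : L → ℂ) = _ from classInner_irrSub cfg.hLH ψ φ,
        ← (correspondence (L.subgroupOf H) φH.2 HT hHTinertia hNHT ψ.2 hη' hη'φ hcon).2.1]
      exact hη'φ
    refine ⟨ψ, hψφ, ?_, fun ψ' hψ'φ => ?_⟩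
    · intro x y
      let b : MulAut HT :=
        { toFun := fun z => ⟨restrAut a H cfg.stabH x z, hT x _ z.2⟩
          invFun := fun z => ⟨restrAut a H cfg.stabH x⁻¹ z, hT x⁻¹ _ z.2⟩
          left_inv := fun z => Subtype.ext (Subtype.ext (by
            show a x⁻¹ (a x ((z : H) : G)) = ((z : H) : G)
            rw [← MulAut.mul_apply, ← map_mul, inv_mul_cancel, map_one, MulAut.one_apply]))
          right_inv := fun z => Subtype.ext (Subtype.ext (by
            show a x (a x⁻¹ ((z : H) : G)) = ((z : H) : G)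
            rw [← MulAut.mul_apply, ← map_mul, mul_inv_cancel, map_one, MulAut.one_apply]))
          map_mul' := fun z w => Subtype.ext (map_mul _ _ _) }
      have h1 : classInner (fun t : HT => (ψ : H → ℂ) (restrAut a H cfg.stabH x t)) η' ≠ 0 := by
        rw [show η' = fun t => η' (b t) from funext fun t => (hηs x (e t)).symm]
        rw [show (fun t : HT => (ψ : H → ℂ) (restrAut a H cfg.stabH x t)) =
          fun t : HT => (ψ : H → ℂ) (b t : HT) from rfl, classInner_equiv b (fun t : HT => (ψ : H → ℂ) t) η']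
        exact hcon
      have h2 := (correspondence (L.subgroupOf H) φH.2 HT hHTinertia hNHT
        (isIrrCharacter_comp_equiv (restrAut a H cfg.stabH x) ψ.2) hη' hη'φ h1).1
      exact (congrFun h2 y).symm
    · obtain ⟨η₁, hη₁φ, hind₁, -⟩ := hHside ψ' hψ'φ
      rw [hoddEq (hmult ψ' η₁ hη₁φ hind₁), hη]
      refine ⟨fun h => Subtype.ext ?_, fun h => ?_⟩
      · rw [← hind₁, h]
      · subst h
        have hη₁' : IsIrrCharacter HT fun x => (η₁ : H.subgroupOf T → ℂ) (e x) :=
          isIrrCharacter_comp_equiv e η₁.2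
        have h3 := hψinj _ hη₁' (by
          let e0 : L.subgroupOf H ≃* L.subgroupOf T :=
            { toFun := fun x => ⟨⟨(x : H), hLT x.2⟩, x.2⟩
              invFun := fun y => ⟨⟨(y : T), cfg.hLH y.2⟩, y.2⟩
              left_inv := fun x => rfl
              right_inv := fun y => rfl
              map_mul' := fun x y => rfl }
          rwa [← classInner_comp_equiv e0] at hη₁φ) hind₁
        refine Subtype.ext (funext fun y => ?_)
        have := congrFun h3 (e.symm y)
        simpa [η'] using this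
  · obtain ⟨η, hηφ, hind, hηinv⟩ := hHside ψ hψφ
    obtain ⟨ξ, hξs, hξφ, hodd⟩ := hsur η hηφ (hηinv hψ)
    have hover : classInner (resLe hLT (ξ : T → ℂ)) (φ : L → ℂ) ≠ 0 := by
      rw [show classInner (resLe hLT (ξ : T → ℂ)) (φ : L → ℂ) = _ from classInner_irrSub hLT ξ φ]
      exact hξφ
    obtain ⟨hχirr, hχinj⟩ := indFun_correspondent L φ.2 T rfl hLT ξ.2 hover
    let χ : IrrCharacter G := ⟨_, hχirr⟩
    have hcon : classInner (fun t : T => (χ : G → ℂ) t) (ξ : T → ℂ) ≠ 0 := by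
      rw [← classInner_indFun_right T _ (isClassFunction_of_isIrr χ.2)]
      show classInner (χ : G → ℂ) (χ : G → ℂ) ≠ 0
      rw [classInner_irr_self χ.2]; exact one_ne_zero
    have hχinv : Inv a (χ : G → ℂ) := fun x g => by
      have h1 : classInner (fun t : T => (χ : G → ℂ) (a x t)) (ξ : T → ℂ) ≠ 0 := by
        rw [show (ξ : T → ℂ) = fun t => (ξ : T → ℂ) (aT x t) from funext fun t => (hξs x t).symm]
        rw [show (fun t : T => (χ : G → ℂ) (a x t)) = fun t : T => (χ : G → ℂ) (aT x t : T) from rfl,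
          classInner_equiv (aT x) (fun t : T => (χ : G → ℂ) t) (ξ : T → ℂ)]
        exact hcon
      exact (congrFun (correspondence L φ.2 T rfl hLT (isIrrCharacter_comp_equiv (a x) χ.2) ξ.2 hover h1).1 g).symm
    have hχφ : classInner (fun l : L => (χ : G → ℂ) l) (φ : L → ℂ) ≠ 0 := by
      rw [← (correspondence L φ.2 T rfl hLT χ.2 ξ.2 hover hcon).2.1]; exact hover
    refine ⟨χ, hχinv, ?_⟩
    obtain ⟨ξ₁, -, hind₁, hξ₁φ, hmult⟩ := hGside χ hχinv hχφ
    rw [hoddEq (hmult ψ η hηφ hind)]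
    have : (ξ₁ : T → ℂ) = ξ := hχinj _ ξ₁.2 (by
      rw [show classInner (resLe hLT (ξ₁ : T → ℂ)) (φ : L → ℂ) = _ from classInner_irrSub hLT ξ₁ φ]
      exact hξ₁φ) hind₁
    rw [this]; exact hodd
  · have hne : ∀ χ₀ : IrrCharacter G, OddMult (fun h : H => (χ₀ : G → ℂ) h) (ψ : H → ℂ) →
        classInner (fun l : L => (χ₀ : G → ℂ) l) (φ : L → ℂ) ≠ 0 := by
      rintro χ₀ ⟨m, hm, hmo⟩
      exact over_trans H.subtype (Subgroup.inclusion cfg.hLH) (isCharacter_of_isIrr χ₀.2) ψ.2
        (isCharacter_of_isIrr φ.2) (by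
          refine ne_of_eq_of_ne hm (Nat.cast_ne_zero.mpr ?_)
          rintro rfl; exact (Nat.not_odd_zero hmo)) hψφ
    obtain ⟨η, hηφ, hind, -⟩ := hHside ψ hψφ
    obtain ⟨ξ, hξs, hi, hξφ, hmult⟩ := hGside χ hχ (hne χ h)
    obtain ⟨ξ', hξ's, hi', hξ'φ, hmult'⟩ := hGside χ' hχ' (hne χ' h')
    rw [hoddEq (hmult ψ η hηφ hind)] at h
    rw [hoddEq (hmult' ψ η hηφ hind)] at h'
    have := hinj ξ ξ' η hξs hξ's hξφ hξ'φ h h'
    exact Subtype.ext (by rw [← hi, ← hi', this])

/-- The correspondence on all invariant characters. -/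
theorem Cfg.correspondence_all [Fintype H] :
    (∀ χ : IrrCharacter G, Inv a (χ : G → ℂ) → ∃! ψ : IrrCharacter H,
      Inv (restrAut a H cfg.stabH) (ψ : H → ℂ) ∧ OddMult (fun h : H => (χ : G → ℂ) h) (ψ : H → ℂ)) ∧
    (∀ (χ χ' : IrrCharacter G) (ψ : IrrCharacter H), Inv a (χ : G → ℂ) → Inv a (χ' : G → ℂ) →
      Inv (restrAut a H cfg.stabH) (ψ : H → ℂ) →
      OddMult (fun h : H => (χ : G → ℂ) h) (ψ : H → ℂ) →
      OddMult (fun h : H => (χ' : G → ℂ) h) (ψ : H → ℂ) → χ = χ') ∧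
    (∀ ψ : IrrCharacter H, Inv (restrAut a H cfg.stabH) (ψ : H → ℂ) →
      ∃ χ : IrrCharacter G, Inv a (χ : G → ℂ) ∧ OddMult (fun h : H => (χ : G → ℂ) h) (ψ : H → ℂ)) := by
  classical
  have := Fintype.ofFinite L
  have := Fintype.ofFinite (L.subgroupOf H)
  haveI : (L.subgroupOf H).Normal := (inferInstance : L.Normal).subgroupOf H
  haveI := cfg.solv
  have hstL : ∀ x : S, ∀ l ∈ L.subgroupOf H, restrAut a H cfg.stabH x l ∈ L.subgroupOf H :=
    fun x l hl => cfg.stabL x _ hl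
  have hψbelow : ∀ ψ : IrrCharacter H, Inv (restrAut a H cfg.stabH) (ψ : H → ℂ) →
      ∃ φ : IrrCharacter L, classInner (resLe cfg.hLH (ψ : H → ℂ)) (φ : L → ℂ) ≠ 0 ∧
        Inv (restrAut a L cfg.stabL) (φ : L → ℂ) := by
    intro ψ hψ
    obtain ⟨φ', hφ', hφ's⟩ := exists_inv_below hstL hψ
      (cfg.copG.coprime_dvd_left ((Subgroup.index_dvd_card _).trans (Subgroup.card_subgroup_dvd_card _)))
      (Or.inl inferInstance)
    obtain ⟨φ, rfl⟩ := (irrSub cfg.hLH).surjective φ'
    refine ⟨φ, ?_, fun x l => ?_⟩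
    · rw [show classInner (resLe cfg.hLH (ψ : H → ℂ)) (φ : L → ℂ) = _ from classInner_irrSub cfg.hLH ψ φ]
      exact hφ'
    · exact (congrArg (φ : L → ℂ) (Subtype.ext rfl)).trans
        ((hφ's x ((Subgroup.subgroupOfEquivOfLe cfg.hLH).symm l)).trans
          (congrArg (φ : L → ℂ) (Subtype.ext rfl)))
  refine ⟨fun χ hχ => ?_, fun χ χ' ψ hχ hχ' hψ h h' => ?_, fun ψ hψ => ?_⟩
  · obtain ⟨φ, hφ, hφs⟩ := exists_inv_below (N := L) cfg.stabL hχ
      (cfg.copG.coprime_dvd_left (Subgroup.index_dvd_card _)) (Or.inl inferInstance)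
    obtain ⟨ψ, hψφ, hψs, hψ⟩ := (cfg.over_corr φ hφs).1 χ hχ hφ
    refine ⟨ψ, ⟨hψs, (hψ ψ hψφ).mpr rfl⟩, fun ψ' ⟨hψ's, hodd⟩ => (hψ ψ' ?_).mp hodd⟩
    obtain ⟨φ', hφ'ψ, hφ's⟩ := hψbelow ψ' hψ's
    have h1 : classInner (fun l : L => (χ : G → ℂ) l) (φ' : L → ℂ) ≠ 0 := by
      obtain ⟨m, hm, hmo⟩ := hodd
      exact over_trans H.subtype (Subgroup.inclusion cfg.hLH) (isCharacter_of_isIrr χ.2) ψ'.2
        (isCharacter_of_isIrr φ'.2) (by
          refine ne_of_eq_of_ne hm (Nat.cast_ne_zero.mpr ?_)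
          rintro rfl; exact (Nat.not_odd_zero hmo)) hφ'ψ
    obtain ⟨g, hg⟩ := conjugate_of_constituents L χ.2 φ.2 φ'.2 hφ h1
    obtain ⟨h, hh, k, hk, rfl⟩ := cfg.prod g
    rw [conjChar_mul] at hg
    set φ₁ : L → ℂ := conjChar L h (φ : L → ℂ) with hφ₁
    have hcf₁ : IsClassFunction L φ₁ := isClassFunction_of_isIrr (isIrrCharacter_conjChar L h φ.2)
    have hφ₁s : ∀ x n, φ₁ (restrAut a L cfg.stabL x n) = φ₁ n := by
      intro x n
      let l : L := ⟨a x h * h⁻¹, by
        have := (inferInstance : L.Normal).conj_mem _ (cfg.triv x h hh) h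
        simpa [mul_assoc] using this⟩
      let n₀ : L := ⟨h * (n : G) * h⁻¹, (inferInstance : L.Normal).conj_mem _ n.2 h⟩
      show (φ : L → ℂ) _ = (φ : L → ℂ) n₀
      rw [← hφs x n₀]
      refine ((isClassFunction_of_isIrr φ.2) _ l).symm.trans (congrArg (φ : L → ℂ) (Subtype.ext ?_))
      simp [l, n₀, restrAut_apply, mul_assoc]
    have hkin : k ∈ inertia L φ₁ := by
      refine cfg.mem_of_moved (le_inertia L hcf₁) hk fun x => ?_
      have h2 : conjChar L (a x k) φ₁ = conjChar L k φ₁ := by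
        rw [hg]
        funext n
        have h3 := hφ's x⁻¹ n
        rw [← hg, conjChar_apply, conjChar_apply] at h3
        rw [conjChar_apply, ← hg, conjChar_apply, ← h3]
        refine Eq.trans (congrArg φ₁ (Subtype.ext ?_)) (hφ₁s x _)
        have hxx : a x (a x⁻¹ (n : G)) = n := by
          rw [← MulAut.mul_apply, ← map_mul, mul_inv_cancel, map_one, MulAut.one_apply]
        show _ = a x (k * a x⁻¹ (n : G) * k⁻¹)
        rw [map_mul, map_mul, map_inv (a x), hxx]
      rw [mem_inertia, conjChar_mul, h2, ← conjChar_mul, mul_inv_cancel, conjChar_one]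
    rw [(mem_inertia L).mp hkin] at hg
    have h4 : resLe cfg.hLH (ψ' : H → ℂ) = conjChar L h (resLe cfg.hLH (ψ' : H → ℂ)) :=
      funext fun n => ((isClassFunction_of_isIrr ψ'.2) ⟨(n : G), cfg.hLH n.2⟩ ⟨h, hh⟩).symm.trans
        (congrArg (ψ' : H → ℂ) (Subtype.ext rfl))
    rw [h4, ← hg, hφ₁, classInner_conjChar] at hφ'ψ
    exact hφ'ψ
  · obtain ⟨φ, hφψ, hφs⟩ := hψbelow ψ hψ
    exact (cfg.over_corr φ hφs).2.2 χ χ' ψ hχ hχ' hφψ h h'
  · obtain ⟨φ, hφψ, hφs⟩ := hψbelow ψ hψ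
    exact (cfg.over_corr φ hφs).2.1 ψ hφψ hψ

end Cfsg.Agent.Lib.OddCorr
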